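import Mathlib
import Cfsg.Agent.Lib.Helper79.CS3.EndDefs

/-!
# Project CS3 (S4284), part [END]: package [DF]
-/

set_option autoImplicit false

namespace Cfsg.Agent.Lib.Helper90.CS3

open Cfsg.Agent.Lib.Helper79.CS3

universe u v

/-- Averaging over a coprime action on an abelian group: the kernel `K` of the norm map is a
stable complement of the fixed points. -/
theorem coprime_avg {Q : Type u} {P : Type v} [Group Q] [Finite Q] [Group P] [Finite P]
    (hc : ∀ a b : Q, a * b = b * a) (φ : P →* MulAut Q)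
    (hcop : (Nat.card Q).Coprime (Nat.card P)) :
    ∃ K : Subgroup Q, (∀ σ q, q ∈ K → φ σ q ∈ K) ∧
      (∀ z ∈ K, (∀ σ, φ σ z = z) → z = 1) ∧
      (∀ q, ∃ z, (∀ σ, φ σ z = z) ∧ q * z⁻¹ ∈ K) ∧
      (∀ σ q, q * φ σ q⁻¹ ∈ K) := by
  classical
  letI : CommGroup Q := { (inferInstance : Group Q) with mul_comm := hc }
  haveI : Fintype P := Fintype.ofFinite P
  let θ : Q →* Q := ∏ σ : P, (φ σ).toMonoidHom
  have hθ : ∀ q, θ q = ∏ σ : P, φ σ q := by
    intro q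
    simp [θ, MonoidHom.finset_prod_apply]
  have h1 : ∀ τ q, θ (φ τ q) = θ q := by
    intro τ q
    rw [hθ, hθ]
    have h : ∀ σ, φ σ (φ τ q) = φ (σ * τ) q := by
      intro σ
      rw [map_mul]
      rfl
    simp_rw [h]
    exact Fintype.prod_equiv (Equiv.mulRight τ) _ _ (fun σ => rfl)
  have h2 : ∀ τ q, φ τ (θ q) = θ q := by
    intro τ q
    rw [hθ, map_prod]
    have h : ∀ σ, φ τ (φ σ q) = φ (τ * σ) q := by
      intro σ
      rw [map_mul]
      rfl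
    simp_rw [h]
    exact Fintype.prod_equiv (Equiv.mulLeft τ) _ _ (fun σ => rfl)
  have h3 : ∀ z, (∀ σ, φ σ z = z) → θ z = z ^ Nat.card P := by
    intro z hz
    rw [hθ]
    simp [hz, Nat.card_eq_fintype_card]
  refine ⟨θ.ker, ?_, ?_, ?_, ?_⟩
  · intro σ q hq
    rw [MonoidHom.mem_ker] at hq ⊢
    rw [h1, hq]
  · intro z hz hfix
    rw [MonoidHom.mem_ker, h3 z hfix] at hz
    have hz2 : z ^ Nat.card Q = 1 := pow_card_eq_one'
    have hd := Nat.dvd_gcd (orderOf_dvd_of_pow_eq_one hz2) (orderOf_dvd_of_pow_eq_one hz)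
    have hg : Nat.gcd (Nat.card Q) (Nat.card P) = 1 := hcop
    rw [hg] at hd
    exact orderOf_eq_one_iff.mp (Nat.dvd_one.mp hd)
  · intro q
    have hfix : ∀ σ, φ σ ((powCoprime hcop).symm (θ q)) = (powCoprime hcop).symm (θ q) := by
      intro σ
      rw [powCoprime_symm_apply, map_zpow, h2]
    refine ⟨(powCoprime hcop).symm (θ q), hfix, ?_⟩
    rw [MonoidHom.mem_ker, map_mul, map_inv, h3 _ hfix]
    have h4 : ((powCoprime hcop).symm (θ q)) ^ Nat.card P = θ q :=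
      (powCoprime hcop).apply_symm_apply (θ q)
    rw [h4, mul_inv_cancel]
  · intro σ q
    rw [MonoidHom.mem_ker, map_mul, h1, ← map_mul, mul_inv_cancel, map_one]

/-- Package [DF]. -/
theorem pkgDF : PkgDF.{u} := by
  intro G _ _ Q P hDF hQn hQc hcop hinf hsup
  classical
  haveI := hQn
  let φ : P →* MulAut Q := (MulAut.conjNormal (H := Q)).comp P.subtype
  have hφ : ∀ (σ : P) (q : Q), ((φ σ q : Q) : G) = σ * q * (σ : G)⁻¹ := by
    intro σ q
    simp [φ]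
  obtain ⟨K, hK1, hK2, hK3, hK4⟩ :=
    coprime_avg (fun a b : Q => Subtype.ext (hQc a a.2 b b.2)) φ hcop
  have hdec : ∀ g : G, ∃ q ∈ Q, ∃ l ∈ P, q * l = g := by
    intro g
    have hg : g ∈ ((Q ⊔ P : Subgroup G) : Set G) := by
      rw [hsup]
      trivial
    rw [Subgroup.normal_mul] at hg
    exact Set.mem_mul.mp hg
  have hK'Q : K.map Q.subtype ≤ Q := Subgroup.map_subtype_le K
  have hK'P : ∀ l ∈ P, ∀ x ∈ K.map Q.subtype, l * x * l⁻¹ ∈ K.map Q.subtype := by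
    intro l hl x hx
    obtain ⟨q, hq, rfl⟩ := Subgroup.mem_map.mp hx
    have h1 := Subgroup.mem_map_of_mem Q.subtype (hK1 ⟨l, hl⟩ q hq)
    have h2 : (Q.subtype (φ ⟨l, hl⟩ q) : G) = l * Q.subtype q * l⁻¹ := hφ ⟨l, hl⟩ q
    rw [h2] at h1
    exact h1
  have hK'Qc : ∀ q0 ∈ Q, ∀ x ∈ K.map Q.subtype, q0 * x * q0⁻¹ = x := by
    intro q0 hq0 x hx
    rw [hQc q0 hq0 x (hK'Q hx), mul_inv_cancel_right]
  have hK'n : (K.map Q.subtype).Normal := by
    constructor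
    intro x hx g
    obtain ⟨q0, hq0, l, hl, rfl⟩ := hdec g
    have h1 := hK'P l hl x hx
    have h2 := hK'Qc q0 hq0 _ h1
    have h3 : q0 * l * x * (q0 * l)⁻¹ = q0 * (l * x * l⁻¹) * q0⁻¹ := by group
    rw [h3, h2]
    exact h1
  have hBmem : ∀ b : G, b ∈ K.map Q.subtype ⊔ P ↔ ∃ k ∈ K.map Q.subtype, ∃ l ∈ P, k * l = b := by
    intro b
    rw [← SetLike.mem_coe, Subgroup.normal_mul, Set.mem_mul]
    rfl
  have hBn : (K.map Q.subtype ⊔ P).Normal := by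
    constructor
    intro b hb g
    obtain ⟨k, hk, l, hl, rfl⟩ := (hBmem _).mp hb
    obtain ⟨q0, hq0, l0, hl0, rfl⟩ := hdec g
    have h1 : (q0 * l0) * k * (q0 * l0)⁻¹ ∈ K.map Q.subtype := hK'n.conj_mem k hk _
    have hl'P : l0 * l * l0⁻¹ ∈ P := P.mul_mem (P.mul_mem hl0 hl) (P.inv_mem hl0)
    have h2 : q0 * ((l0 * l * l0⁻¹) * q0⁻¹ * (l0 * l * l0⁻¹)⁻¹) ∈ K.map Q.subtype := by
      have h5 := Subgroup.mem_map_of_mem Q.subtype (hK4 ⟨l0 * l * l0⁻¹, hl'P⟩ ⟨q0, hq0⟩)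
      have h3 : (Q.subtype (⟨q0, hq0⟩ * φ ⟨l0 * l * l0⁻¹, hl'P⟩ (⟨q0, hq0⟩ : Q)⁻¹) : G) =
          q0 * ((l0 * l * l0⁻¹) * q0⁻¹ * (l0 * l * l0⁻¹)⁻¹) := by
        rw [map_mul]
        have h6 := hφ ⟨l0 * l * l0⁻¹, hl'P⟩ (⟨q0, hq0⟩ : Q)⁻¹
        simp only [Subgroup.coe_subtype, Subgroup.coe_inv] at h6 ⊢
        rw [h6]
      rw [h3] at h5
      exact h5
    have h4 : (q0 * l0) * (k * l) * (q0 * l0)⁻¹ = ((q0 * l0) * k * (q0 * l0)⁻¹) *
        ((q0 * ((l0 * l * l0⁻¹) * q0⁻¹ * (l0 * l * l0⁻¹)⁻¹)) * (l0 * l * l0⁻¹)) := by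
      group
    rw [h4]
    exact Subgroup.mul_mem _ (Subgroup.mem_sup_left h1)
      (Subgroup.mul_mem _ (Subgroup.mem_sup_left h2) (Subgroup.mem_sup_right hl'P))
  have hAn : (Q ⊓ Subgroup.center G).Normal := by
    constructor
    intro a ha g
    have hc := Subgroup.mem_center_iff.mp ha.2 g
    rw [hc, mul_inv_cancel_right]
    exact ha
  have hAc : IsMulCommutative ↥(Q ⊓ Subgroup.center G) :=
    ⟨⟨fun a b => Subtype.ext (hQc a a.2.1 b b.2.1)⟩⟩
  have hAB : (Q ⊓ Subgroup.center G) ⊓ (K.map Q.subtype ⊔ P) = ⊥ := by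
    rw [Subgroup.eq_bot_iff_forall]
    intro z hz
    obtain ⟨⟨hzQ, hzC⟩, hzB⟩ := hz
    obtain ⟨k, hk, l, hl, rfl⟩ := (hBmem _).mp hzB
    have hlQ : l ∈ Q := by
      have h := Q.mul_mem (Q.inv_mem (hK'Q hk)) hzQ
      rwa [inv_mul_cancel_left] at h
    have hl1 : l = 1 := by
      have h : l ∈ Q ⊓ P := ⟨hlQ, hl⟩
      rw [hinf] at h
      exact Subgroup.mem_bot.mp h
    subst hl1
    rw [mul_one] at hzC ⊢
    obtain ⟨q, hq, rfl⟩ := Subgroup.mem_map.mp hk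
    have hq1 : q = 1 := by
      apply hK2 q hq
      intro σ
      apply Subtype.ext
      rw [hφ]
      have hc := Subgroup.mem_center_iff.mp hzC (σ : G)
      have hc' : (σ : G) * (q : G) = (q : G) * (σ : G) := hc
      rw [hc', mul_inv_cancel_right]
    rw [hq1]
    rfl
  have hABsup : (Q ⊓ Subgroup.center G) ⊔ (K.map Q.subtype ⊔ P) = ⊤ := by
    rw [eq_top_iff]
    intro g _
    obtain ⟨q0, hq0, l, hl, rfl⟩ := hdec g
    obtain ⟨z, hzfix, hzK⟩ := hK3 ⟨q0, hq0⟩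
    have hzc : (z : G) ∈ Subgroup.center G := by
      rw [Subgroup.mem_center_iff]
      intro g
      obtain ⟨q1, hq1, l1, hl1, rfl⟩ := hdec g
      have h1 : l1 * (z : G) * l1⁻¹ = z := by
        have h := hφ ⟨l1, hl1⟩ z
        rw [hzfix] at h
        exact h.symm
      have h2 : l1 * (z : G) = z * l1 := by
        have h := congrArg (fun x => x * l1) h1
        simpa using h
      rw [mul_assoc, h2, ← mul_assoc, hQc q1 hq1 z z.2, mul_assoc]
    have hzA : (z : G) ∈ Q ⊓ Subgroup.center G := ⟨z.2, hzc⟩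
    have hk : q0 * (z : G)⁻¹ ∈ K.map Q.subtype := by
      have h := Subgroup.mem_map_of_mem Q.subtype hzK
      simpa using h
    have h3 : q0 * l = (z : G) * ((q0 * (z : G)⁻¹) * l) := by
      have hc := hQc z z.2 q0 hq0
      rw [← mul_assoc, ← mul_assoc, hc, mul_inv_cancel_right]
    rw [h3]
    exact Subgroup.mul_mem _ (Subgroup.mem_sup_left hzA)
      (Subgroup.mem_sup_right (Subgroup.mul_mem _ (Subgroup.mem_sup_left hk)
        (Subgroup.mem_sup_right hl)))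
  exact hDF _ _ hAn hBn hAB hABsup hAc

end Cfsg.Agent.Lib.Helper90.CS3
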